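import Cfsg.Agent.U4R.Reg
import Cfsg.Agent.LES.Pair

/-! The group `⟨Q, Q^g⟩` for `Q = 2^{1+4}_+` and `Q ∩ Q^g` of order four (helper24): `QG`, `QG.braid`, `QG.one`,
`QG.exists_v` (all relations between `Q` and an involution `v` of `Q^g`). -/

set_option autoImplicit false

namespace Cfsg.Agent.U4R

open Cfsg.Agent.HJ Cfsg.Agent.LES Subgroup

variable {G : Type*} [Group G]

/-- `w` lies in `⟨z, s⟩`. -/
abbrev V4 (z s w : G) : Prop := w = 1 ∨ w = z ∨ w = s ∨ w = s * z

/-- `g` swaps `z` and `s ∈ Q`, and `q ∈ Q` does not centralise `s`. -/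
structure SW (Q : Subgroup G) (q s z g : G) : Prop extends LE Q z where
  hq : q ∈ Q
  hs : s ∈ Q
  qq : q * q = 1
  ss : s * s = 1
  s1 : s ≠ 1
  qs : κ q s = s * z
  gz : κ g z = s
  gs : κ g s = z
  cap : ∀ w ∈ Q, κ g⁻¹ w ∈ Q → V4 z s w

namespace SW

variable [Finite G] {Q : Subgroup G} {p r q s z g c a : G} (S : SW Q q s z g)
include S

theorem sz : Commute s z := S.zc s S.hs
theorem sz' : s ≠ z := fun h => S.z1 (by
  have := S.qs
  rw [h, cj_eq.2 (S.zc q S.hq).eq] at this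
  simpa using this)
theorem kz : κ g⁻¹ z = s := cj_inv S.gs
theorem ks : κ g⁻¹ s = z := cj_inv S.gz
theorem qz : κ q z = z := cj_eq.2 (S.zc q S.hq).eq
theorem szs : s * z * s = z := by rw [S.sz.eq, mul_assoc, S.ss, mul_one]
theorem zsz : z * s * z = s := by rw [← S.sz.eq, mul_assoc, S.zz, mul_one]

theorem comm_g (h : Commute c s) : Commute (κ g⁻¹ c) z := by rw [← S.ks]; exact cj_comm.2 h.eq

theorem nP (h : Commute c s) (ha : κ g⁻¹ a ∈ Q) : κ g⁻¹ (κ c a) ∈ Q := by
  rw [cj_cj]; exact S.toLE.conj_mem (S.comm_g h) ha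

theorem comm' (hc : c ∈ Q) (h : Commute c s) (ha : κ g⁻¹ a ∈ Q) (hz : Commute a z) : V4 z s (κ a c * c⁻¹) := by
  refine S.cap _ (mul_mem (S.toLE.conj_mem hz hc) (inv_mem hc)) ?_
  rw [show κ a c * c⁻¹ = a * κ c a⁻¹ by simp [mul_assoc], map_mul]
  exact mul_mem ha (S.nP h (by rw [map_inv]; exact inv_mem ha))

theorem sqP (ha : κ g⁻¹ a ∈ Q) : a * a = 1 ∨ a * a = s :=
  (S.sq _ ha).imp (fun h => cj_one.1 ((map_mul _ _ _).trans h)) fun h =>
    cj_inj.1 (((map_mul _ _ _).trans h).trans S.ks.symm)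

theorem V4_inv {w : G} (h : V4 z s w) : w⁻¹ = w := by
  rcases h with rfl | rfl | rfl | rfl
  exacts [inv_one, inv_of_sq S.zz, inv_of_sq S.ss, inv_of_sq (by rw [← mul_assoc, S.szs, S.zz])]

theorem V4_g {w : G} (h : V4 z s w) : V4 z s (κ g⁻¹ w) := by
  rcases h with rfl | rfl | rfl | rfl
  exacts [.inl (map_one _), .inr (.inr (.inl S.kz)), .inr (.inl S.ks),
    .inr (.inr (.inr (by rw [map_mul, S.kz, S.ks, S.sz.eq])))]

theorem vv : κ g q * κ g q = 1 := by rw [← map_mul, S.qq, map_one]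
theorem vz : κ (κ g q) z = z * s := by rw [← S.gs, ← cj_cj, S.qs, map_mul, S.gz, S.gs]
theorem vs : κ (κ g q) s = s := by rw [← S.gz, ← cj_cj, S.qz]
theorem vP : κ g⁻¹ (κ g q) ∈ Q := by rw [cj_inv rfl]; exact S.hq

theorem braid : q * κ g q * q = κ g q * q * κ g q := by
  have vv := S.vv
  have vz := S.vz
  have vs := S.vs
  have hq := S.hq
  have h1 := S.toLE.conj_mem (x := (κ g q)⁻¹ * (q * g)) (y := q) (cj_eq.1 (by
    rw [cj_mul, cj_mul, S.gz, S.qs]; exact cj_inv (by rw [vz, S.sz.eq]))) hq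
  have h2 := S.toLE.conj_mem (x := g⁻¹ * (q * κ g q)) (y := q) (cj_eq.1 (by
    rw [cj_mul, cj_mul, vz, map_mul, S.qz, S.qs, ← mul_assoc, S.zsz, S.ks])) hq
  have vP := S.vP
  rw [← MulAut.conj_apply, cj_mul, cj_mul] at h1 h2
  generalize κ g q = v at *
  have qi := inv_of_sq S.qq
  have vi := inv_of_sq vv
  have e1 : q * κ v⁻¹ (κ q v) = κ q (κ v q) * v := by simp [qi, vi, mul_assoc]
  have := S.cap _ (mul_mem hq h1) (by rw [e1, map_mul]; exact mul_mem h2 vP)
  have c : κ (q * v) (q * κ v⁻¹ (κ q v)) = q * κ v⁻¹ (κ q v) := by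
    simp [qi, vi, mul_assoc, Invol.mul_self_cancel S.qq, Invol.mul_self_cancel vv, S.qq]
  have t1 : κ (q * v) z = s := by rw [cj_mul, vz, map_mul, S.qz, S.qs, ← mul_assoc, S.zsz]
  have t2 : κ (q * v) s = s * z := by rw [cj_mul, vs, S.qs]
  rcases this with h | h | h | h
  · have : q * v * q * (v * q * v) = 1 := by simpa [qi, vi, mul_assoc] using h
    rw [eq_inv_of_mul_eq_one_left this]; simp [qi, vi, mul_assoc]
  · rw [h, t1] at c; exact absurd c S.sz'
  · rw [h, t2] at c; exact absurd (by simpa using c) S.z1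
  · rw [h, map_mul, t1, t2, S.szs] at c; exact absurd (by simpa using c) S.s1

end SW

/-- `Q = ⟨s, q⟩ * ⟨p, r⟩` is a central product of two dihedral groups. -/
structure QG (Q : Subgroup G) (p r q s z g : G) : Prop extends SW Q q s z g where
  hp : p ∈ Q
  hr : r ∈ Q
  pp : p * p = 1
  rr : r * r = 1
  pr : κ p r = r * z
  pq : Commute p q
  ps : Commute p s
  rq : Commute r q
  rs : Commute r s
  inn : ∀ h, Commute h z → Commute h s → V4 z s (κ h q * q⁻¹) → V4 z s (κ h p * p⁻¹) → V4 z s (κ h r * r⁻¹) → h ∈ Q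

namespace QG

variable [Finite G] {Q : Subgroup G} {p r q s z g c a : G} (S : QG Q p r q s z g)
include S

theorem inj (hc : c ∈ Q) (h : Commute c s) (e : V4 z s (κ (κ g q) c * c⁻¹)) : V4 z s c := by
  have k : ∀ u ∈ Q, Commute u s → V4 z s (κ (κ g⁻¹ c) u * u⁻¹) := fun u hu hs => by
    have := S.V4_g (S.comm' (a := κ g u) hc h (by rw [cj_inv rfl]; exact hu)
      (by rw [← S.gs]; exact cj_comm.2 hs.eq))
    rwa [← S.V4_inv this, show (κ g⁻¹ (κ (κ g u) c * c⁻¹))⁻¹ = κ (κ g⁻¹ c) u * u⁻¹ by simp [mul_assoc]] at this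
  refine S.cap c hc (S.inn _ (S.comm_g h) ?_ ?_ (k p S.hp S.ps) (k r S.hr S.rs))
  · rw [← S.kz]; exact cj_comm.2 (S.zc c hc).eq
  · have := S.V4_g e
    rwa [← S.V4_inv this, show (κ g⁻¹ (κ (κ g q) c * c⁻¹))⁻¹ = κ (κ g⁻¹ c) q * q⁻¹ by simp [mul_assoc]] at this

theorem one {u v : G} (hv : κ g q = v) (hu : u ∈ Q) (uu : u * u = 1) (uq : Commute u q) (us : Commute u s)
    (ha : u * v * u * v = a) : κ g⁻¹ a ∈ Q ∧ Commute a z ∧ Commute a s ∧ a * a = 1 ∧ Commute a u ∧ κ a q = u * q := by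
  have vv := S.vv
  have vz := S.vz
  have vs := S.vs
  have br := S.braid
  have vP := S.vP
  have inj := fun c => S.inj (c := c)
  rw [hv] at vv vz vs br vP inj
  have qi := inv_of_sq S.qq
  have vi := inv_of_sq vv
  have ui := inv_of_sq uu
  have uz := S.zc u hu
  have ea : a = κ u v * v := by rw [← ha, MulAut.conj_apply, ui]
  have aP : κ g⁻¹ a ∈ Q := by rw [ea, map_mul]; exact mul_mem (S.nP us vP) vP
  have az : κ a z = z := by
    rw [← ha, cj_mul, cj_mul, cj_mul, vz, map_mul, cj_eq.2 uz.eq, cj_eq.2 us.eq, map_mul, vz, vs, mul_assoc, S.ss, mul_one,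
      cj_eq.2 uz.eq]
  have as : κ a s = s := by rw [← ha, cj_mul, cj_mul, cj_mul, vs, cj_eq.2 us.eq, vs, cj_eq.2 us.eq]
  obtain ⟨c, hc⟩ : ∃ c, κ a⁻¹ q = c * q := ⟨κ a⁻¹ q * q⁻¹, by simp⟩
  have cQ : c ∈ Q := by
    have := mul_mem (S.toLE.conj_mem (Commute.inv_left (cj_eq.1 az)) S.hq) (inv_mem S.hq)
    rwa [← MulAut.conj_apply, hc, mul_inv_cancel_right] at this
  have cs : Commute c s := by
    have := congrArg (κ a⁻¹) S.qs
    rw [cj_cj, map_mul, cj_inv as, cj_inv az, hc, cj_mul, S.qs, map_mul, cj_eq.2 (S.zc c cQ).eq] at this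
    exact cj_eq.1 (mul_right_cancel this)
  have va : κ v a = a⁻¹ := by rw [← ha]; simp [vi, ui, mul_assoc, vv]
  have vu : κ v u = u * a := by rw [← ha]; simp [vi, mul_assoc, Invol.mul_self_cancel uu]
  have qa : κ q a = a * c := by
    rw [← mul_inv_cancel_right c q, ← hc]; simp [mul_assoc]
  have vc : κ v c = a * c := by
    have e : κ q a = u * v * u * κ q a * v := by
      calc κ q a = u * (q * v * q) * u * (q * v * q) := by
            rw [← ha, map_mul, map_mul, map_mul, cj_eq.2 uq.symm.eq, MulAut.conj_apply, qi]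
        _ = u * v * κ q (κ v u) * v := by rw [br]; simp [qi, vi, mul_assoc]
        _ = _ := by rw [vu, map_mul, cj_eq.2 uq.symm.eq]; simp [mul_assoc]
    rw [qa] at e
    rw [e, show u * v * u * (a * c) * v = u * v * u * v * κ v (a * c) by simp [vi, mul_assoc, Invol.mul_self_cancel vv, vv],
      ha, map_mul, va, mul_inv_cancel_left]
  have ua : κ a⁻¹ u = u * (a * a) := by
    rw [← ha]; simp [vi, ui, mul_assoc, Invol.mul_self_cancel uu]
  have hw := inj (u * c) (mul_mem hu cQ) (us.mul_left cs) (by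
    rw [map_mul, vu, vc, show u * a * (a * c) * (u * c)⁻¹ = κ u (a * a) by simp [mul_assoc]]
    rcases S.sqP aP with h | h <;> rw [h]
    exacts [.inl (map_one _), .inr (.inr (.inl (cj_eq.2 us.eq)))])
  obtain ⟨w, rfl⟩ : ∃ w, c = u * w := ⟨u * c, by rw [Invol.mul_self_cancel uu]⟩
  rw [Invol.mul_self_cancel uu] at hw
  have wu : Commute w u := by
    rcases hw with rfl | rfl | rfl | rfl
    exacts [.one_left _, uz.symm, us.symm, us.symm.mul_left uz.symm]
  have ws : Commute w s := by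
    rcases hw with rfl | rfl | rfl | rfl
    exacts [.one_left _, S.sz.symm, rfl, .mul_left rfl S.sz.symm]
  have aa : a * a = 1 := (S.sqP aP).resolve_right fun h => S.z1 (by
    have h1 : Commute (u * w * q) (u * s) := by
      rw [← hc, ← h, ← ua]; exact cj_comm.2 uq.symm.eq
    have h2 : Commute (u * w * q) u := ((Commute.refl u).mul_left wu).mul_left uq.symm
    have h3 : Commute (u * w * q) s := by simpa using h2.inv_right.mul_right h1
    have h4 : Commute q s := by simpa only [inv_mul_cancel_left] using (us.mul_left ws).inv_left.mul_left h3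
    have := S.qs
    rw [cj_eq.2 h4.eq] at this
    simpa using this)
  rw [aa, mul_one, inv_of_sq aa] at ua
  have au : Commute a u := cj_eq.1 ua
  have w1 : w * κ q w = 1 := by
    have : u * w * q * (u * w * q) = 1 := by rw [← hc, ← map_mul, S.qq, map_one]
    rw [← this, show u * w * q * (u * w * q) = u * w * κ q u * κ q w * (q * q) by simp [mul_assoc], S.qq,
      cj_eq.2 uq.symm.eq, mul_assoc u, wu.eq, Invol.mul_self_cancel uu, mul_one]
  have w2 : κ v w = w := by
    rw [map_mul, vu, ← mul_assoc, au.eq] at vc; exact mul_left_cancel vc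
  have : w = 1 := by
    rcases hw with h | h | h | h
    · exact h
    · rw [h, vz] at w2; exact absurd (by simpa using w2) S.s1
    · rw [h, S.qs, ← mul_assoc, S.ss, one_mul] at w1; exact absurd w1 S.z1
    · rw [h, map_mul, S.qs, S.qz, mul_assoc s z z, S.zz, mul_one, S.szs] at w1; exact absurd w1 S.z1
  rw [this, mul_one, inv_of_sq aa] at hc
  exact ⟨aP, cj_eq.1 az, cj_eq.1 as, aa, au, hc⟩

theorem cross {u u' v a b : G} (hv : κ g q = v) (hu : u ∈ Q) (hu' : u' ∈ Q) (uu : u * u = 1) (uu' : u' * u' = 1)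
    (uq : Commute u q) (us : Commute u s) (uq' : Commute u' q) (us' : Commute u' s) (h : κ u u' = u' * z)
    (ha : u * v * u * v = a) (hb : u' * v * u' * v = b) :
    (κ a u' = u' * s ∧ κ a b = b) ∨ (κ a u' = u' * (s * z) ∧ κ a b = b * s) := by
  obtain ⟨aP, az, as, aa, au, aq⟩ := S.one hv hu uu uq us ha
  obtain ⟨-, bz, bs, -, -, -⟩ := S.one hv hu' uu' uq' us' hb
  have vv := S.vv
  have vz := S.vz
  have vs := S.vs
  rw [hv] at vv vz vs
  have vi := inv_of_sq vv
  have va : κ v a = a := by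
    rw [← inv_of_sq aa]; nth_rw 1 [inv_of_sq aa]; rw [← ha]; simp [vi, inv_of_sq uu, mul_assoc, vv]
  have vu : κ v u' = u' * b := by rw [← hb]; simp [vi, mul_assoc, Invol.mul_self_cancel uu']
  have uz := S.zc u' hu'
  have k : ∀ w, κ a u' = u' * w → u' * w * κ a b = u' * b * κ v w := fun w hw => by
    rw [← hw, ← map_mul, ← vu, ← map_mul, ← hw, cj_cj v, va]
  have n : Commute (u * q) (κ a u') := by rw [← aq]; exact cj_comm.2 uq'.symm.eq
  have n' : ¬ Commute (u * q) u' := fun e => S.z1 (by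
    have : Commute u u' := by simpa using e.mul_left uq'.symm.inv_left
    rw [cj_eq.2 this.eq] at h; simpa using h)
  rcases S.comm' hu' us' aP az with e | e | e | e <;> rw [mul_inv_eq_iff_eq_mul] at e
  · rw [e, one_mul] at n; exact absurd n n'
  · rw [e] at n
    exact absurd (by simpa using (S.zc _ (mul_mem hu S.hq)).inv_right.mul_right n) n'
  · rw [← us'.eq] at e
    refine .inl ⟨e, ?_⟩
    have := k _ e
    rw [vs, mul_assoc, mul_assoc, bs.eq] at this
    exact mul_left_cancel (mul_left_cancel this)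
  · rw [← (us'.mul_right uz).eq] at e
    refine .inr ⟨e, ?_⟩
    have := k _ e
    rw [map_mul, vs, vz, ← mul_assoc s, S.szs, mul_assoc, mul_assoc u', bz.eq, S.sz.eq, mul_assoc] at this
    rw [eq_inv_mul_of_mul_eq (mul_left_cancel (mul_left_cancel this)), inv_of_sq S.ss, bs.eq]

theorem exists_v : ∃ v a b : G, v * v = 1 ∧ κ v z = z * s ∧ κ v s = s ∧ p * v * p * v = a ∧ r * v * r * v = b ∧
    q * v * q = v * q * v ∧ (Commute a z ∧ Commute a s ∧ a * a = 1 ∧ Commute a p ∧ κ a q = p * q) ∧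
    (Commute b z ∧ Commute b s ∧ b * b = 1 ∧ Commute b r ∧ κ b q = r * q) ∧
    κ a r = r * (s * z) ∧ κ b p = p * (s * z) ∧ κ a b = b * s := by
  have rp : κ r p = p * z := by
    rw [cj_eq, mul_assoc, ← (S.zc r S.hr).eq, ← mul_assoc, cj_eq.1 S.pr, mul_assoc, mul_assoc, (S.zc p S.hp).eq,
      Invol.mul_self_cancel S.zz]
  have A := S.one rfl S.hp S.pp S.pq S.ps rfl
  have B := S.one rfl S.hr S.rr S.rq S.rs rfl
  have C := S.cross rfl S.hp S.hr S.pp S.rr S.pq S.ps S.rq S.rs S.pr rfl rfl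
  have D := S.cross rfl S.hr S.hp S.rr S.pp S.rq S.rs S.pq S.ps rp rfl rfl
  refine ⟨κ g q, _, _, S.vv, S.vz, S.vs, rfl, rfl, S.braid, A.2, B.2, ?_⟩
  have vp : κ (κ g q) p = p * (p * κ g q * p * κ g q) := by
    simp only [mul_assoc, Invol.mul_self_cancel S.pp]; rw [MulAut.conj_apply (κ g q), inv_of_sq S.vv, mul_assoc]
  have vr : κ (κ g q) r = r * (r * κ g q * r * κ g q) := by
    simp only [mul_assoc, Invol.mul_self_cancel S.rr]; rw [MulAut.conj_apply (κ g q), inv_of_sq S.vv, mul_assoc]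
  have vz := S.vz
  generalize p * κ g q * p * κ g q = a at *
  generalize r * κ g q * r * κ g q = b at *
  have x : ∀ {a b : G}, κ a b = b → κ b a = a * s → False := fun h h' => by
    rw [cj_eq.2 (cj_eq.1 h).symm] at h'; exact S.s1 (by simpa using h')
  rcases C with C | C <;> rcases D with D | D
  · exfalso
    have e := congrArg (κ (κ g q)) S.pr
    have pb : κ p b = s * b := by
      rw [cj_eq, mul_assoc, cj_eq.1 D.1, S.ps.eq, mul_assoc, Invol.mul_self_cancel S.ss]
    rw [cj_cj, map_mul, vp, vr, vz, cj_mul, map_mul, C.1, C.2, map_mul, map_mul, S.pr, cj_eq.2 S.ps.eq, pb, mul_assoc,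
      mul_assoc, Invol.mul_self_cancel S.ss, mul_assoc, ← B.2.1.eq, ← mul_assoc b] at e
    exact S.s1 (by simpa using e)
  · exact (x C.2 D.2).elim
  · exact (x D.2 C.2).elim
  · exact ⟨C.1, D.1, C.2⟩

end QG

end Cfsg.Agent.U4R
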