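import Cfsg.Agent.U4R.Tab
import Cfsg.Agent.U4R.Pair
import Cfsg.Agent.Spor.J.U4K

/-! Standard generators of the involution centraliser of `U4(3)` (helper24): `KL` (the subgroup `SL2(3) * SL2(3)`),
`Amal` (the centraliser and the involution `v`), `KL.of_sl`, `KL.exists_amal`. -/

set_option autoImplicit false
set_option maxRecDepth 100000

namespace Cfsg.Agent.U4R

open Cfsg.Agent.HJ Cfsg.Agent.LES Cfsg.Agent.Comp Cfsg.Agent.Spor Subgroup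

variable {G : Type*} [Group G]

/-- The letters. -/
def lets (x y p r q s z a b v : G) : ℕ → G :=
  scons x <| scons x⁻¹ <| scons y <| scons y⁻¹ <| scons p <| scons r <| scons q <| scons s <| scons z <| scons a <|
    scons b <| scons v fun _ => 1

theorem lets_ge (x y p r q s z a b v : G) (i : ℕ) (hi : 12 ≤ i) : lets x y p r q s z a b v i = 1 := by
  obtain ⟨k, rfl⟩ := Nat.exists_eq_add_of_le' hi; rfl

theorem lets_ge' (x y p r q s z a b : G) (i : ℕ) (hi : 11 ≤ i) : lets x y p r q s z a b 1 i = 1 := by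
  rcases hi.eq_or_lt with rfl | h
  exacts [rfl, lets_ge _ _ _ _ _ _ _ _ _ _ i h]

theorem lets_ge'' (x y p r q s z : G) (i : ℕ) (hi : 9 ≤ i) : lets x y p r q s z 1 1 1 i = 1 := by
  rcases lt_or_ge i 11 with h | h
  · interval_cases i <;> rfl
  · exact lets_ge' _ _ _ _ _ _ _ _ _ i h

theorem rels_congr {g g' : ℕ → G} {n : ℕ} {ws : List (List ℕ)} (h : ∀ w ∈ ws, ev g w = 1) (e : ∀ i < n, g' i = g i)
    (hl : chkLet (List.range n) ws = true) : ∀ w ∈ ws, ev g' w = 1 := fun w hw =>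
  (ev_congr' fun i hi => e i (lt_of_chkLet hl w hw i hi)).trans (h w hw)

/-- The subgroup `SL2(3) * SL2(3)`. -/
structure KL (x y p r q s z : G) : Prop where
  rels : ∀ w ∈ JU4L.rels, ev (lets x y p r q s z 1 1 1) w = 1
  z1 : z ≠ 1

/-- The centraliser of `z` and the involution `v`. -/
structure Amal (x y p r q s z a b v : G) : Prop where
  rels : ∀ w ∈ JU4H.rels, ev (lets x y p r q s z a b 1) w = 1
  z1 : z ≠ 1
  cen : genL (lets x y p r q s z a b 1) (List.range 11) = centralizer {z}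
  vv : v * v = 1
  vz : κ v z = z * s
  vs : κ v s = s
  va : p * v * p * v = a
  vb : r * v * r * v = b
  br : q * v * q = v * q * v

namespace F
/-- letters as terms -/
abbrev x : Tm := .g 0
abbrev X : Tm := .g 1
abbrev y : Tm := .g 2
abbrev Y : Tm := .g 3
abbrev p : Tm := .g 4
abbrev r : Tm := .g 5
abbrev q : Tm := .g 6
abbrev s : Tm := .g 7
abbrev z : Tm := .g 8
abbrev a : Tm := .g 9
abbrev b : Tm := .g 10
abbrev u0 : Tm := .v 0
abbrev u1 : Tm := .v 1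
abbrev u2 : Tm := .v 2
abbrev u3 : Tm := .v 3
/-- in `⟨z, s⟩` -/
abbrev v4 (t : Tm) : Fm := .or (.eq t 1) (.or (.eq t z) (.or (.eq t s) (.eq t (s * z))))
/-- in `Q` -/
abbrev inQ (t : Tm) : Fm := .eq (t * t * (t * t)) 1
end F

theorem KL.of_sl {x i y k z : G} (z1 : z ≠ 1) (zz : z * z = 1) (h1 : x * x * x = 1 ∧ i * i = z ∧ x * i * (x * i) * (x * i) = 1)
    (h2 : y * y * y = 1 ∧ k * k = z ∧ y * k * (y * k) * (y * k) = 1) (xz : Commute x z) (yz : Commute y z)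
    (xy : Commute x y) (xk : Commute x k) (iy : Commute i y) (ik : Commute i k) :
    ∃ p r q s, KL x y p r q s z ∧ p * r = i ∧ r * p * s = k ∧
      p ∈ closure {x, i, y, k} ∧ r ∈ closure {x, i, y, k} ∧ q ∈ closure {x, i, y, k} ∧ s ∈ closure {x, i, y, k} := by
  let g : ℕ → G := scons x <| scons x⁻¹ <| scons i <| scons i⁻¹ <| scons y <| scons y⁻¹ <| scons k <| scons k⁻¹ <|
    scons z fun _ => 1
  have iz : Commute i z := h1.2.1 ▸ (Commute.refl i).mul_right rfl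
  have kz : Commute k z := h2.2.1 ▸ (Commute.refl k).mul_right rfl
  have c : ∀ {u w : G}, Commute u w → 1 * u * w * u⁻¹ * w⁻¹ = 1 := fun h => by rw [one_mul, h.eq]; simp
  have c' : ∀ {u : G}, Commute u z → 1 * u * z * u⁻¹ * z = 1 := fun h => by rw [one_mul, h.eq]; simp [zz]
  have hg : ∀ w ∈ JU4K.rels, ev g w = 1 := by
    simp only [JU4K.rels, List.forall_mem_cons]
    refine ⟨rfl, ?_, ?_, ?_, ?_, ?_, ?_, ?_, ?_, (congrArg (· * z) (one_mul z)).trans zz, ?_, ?_, ?_, c' xz, c' iz, ?_, ?_, ?_,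
      c' yz, c' kz, c xy, c xk, c iy, c ik, by simp⟩
    · change 1 * x * x⁻¹ = 1; simp
    · change 1 * x⁻¹ * x = 1; simp
    · change 1 * i * i⁻¹ = 1; simp
    · change 1 * i⁻¹ * i = 1; simp
    · change 1 * y * y⁻¹ = 1; simp
    · change 1 * y⁻¹ * y = 1; simp
    · change 1 * k * k⁻¹ = 1; simp
    · change 1 * k⁻¹ * k = 1; simp
    · change 1 * x * x * x = 1; rw [one_mul, h1.1]
    · change 1 * i * i * z = 1; rw [one_mul, h1.2.1, zz]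
    · change 1 * x * i * x * i * x * i = 1; simpa only [one_mul, mul_assoc] using h1.2.2
    · change 1 * y * y * y = 1; rw [one_mul, h2.1]
    · change 1 * k * k * z = 1; rw [one_mul, h2.2.1, zz]
    · change 1 * y * k * y * k * y * k = 1; simpa only [one_mul, mul_assoc] using h2.2.2
  have E := fun ws => ev_one_of_fin (ws := ws) JU4K.ok JU4K.fin (JU4K.est (g := g) rfl hg fun _ h => nomatch h)
  let d : List (List ℕ) := [[0], [1], [4], [5], [5, 6, 4, 1, 2, 0], [2, 5, 6, 4, 1, 2, 0], [5, 6, 4, 6, 2], [6, 2], [8]]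
  have m : ∀ j, renG g d j ∈ closure {x, i, y, k} := fun j => by
    refine genW_le_genL (xs := List.range 9) (ws := d) (by decide) (getL_mem_genW g d j) |> genL_le fun n hn => ?_
    have hx : x ∈ closure {x, i, y, k} := subset_closure (by simp)
    have hi : i ∈ closure {x, i, y, k} := subset_closure (by simp)
    have hy : y ∈ closure {x, i, y, k} := subset_closure (by simp)
    have hk : k ∈ closure {x, i, y, k} := subset_closure (by simp)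
    have := List.mem_range.1 hn
    interval_cases n
    exacts [hx, inv_mem hx, hi, inv_mem hi, hy, inv_mem hy, hk, inv_mem hk, (h1.2.1 ▸ mul_mem hi hi : z ∈ _)]
  refine ⟨renG g d 4, renG g d 5, renG g d 6, renG g d 7, ⟨rels_congr (n := 9) (renG_rels (ren := d) (E _ (by decide +kernel)))
    (fun n hn => ?_) (by decide), z1⟩, ?_, ?_, m 4, m 5, m 6, m 7⟩
  · interval_cases n
    exacts [(one_mul x).symm, (one_mul x⁻¹).symm, (one_mul y).symm, (one_mul y⁻¹).symm, rfl, rfl, rfl, rfl,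
      (one_mul z).symm]
  · have := E [3 :: renW d [5, 4]] (by decide +kernel) _ List.mem_cons_self
    rw [ev_cons, ← ev_renG] at this
    exact (congrArg (· * _) (one_mul _)).symm.trans (mul_inv_eq_one.1 this)
  · have := E [7 :: renW d [7, 4, 5]] (by decide +kernel) _ List.mem_cons_self
    rw [ev_cons, ← ev_renG] at this
    exact (congrArg (· * _ * _) (one_mul _)).symm.trans (mul_inv_eq_one.1 this)

theorem cube_eq {z h w : G} (zz : z * z = 1) (wz : Commute w z) (h3 : h * h * h = 1) (w3 : w * w * w = 1)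
    (e : w⁻¹ * h = 1 ∨ w⁻¹ * h = z) (z1 : z ≠ 1) : h = w := by
  rcases e with e | e
  · exact (inv_mul_eq_one.1 e).symm
  · rw [eq_mul_of_inv_mul_eq e, ← pow_three', wz.mul_pow, pow_three', pow_three', w3, zz, one_mul, one_mul] at h3
    exact absurd h3 z1

namespace KL

open F HJ.F

variable {x y p r q s z : G} (L : KL x y p r q s z)
include L

theorem dec (φ : Fm) (h : φ.dec 288 TK.mu TK.gc (fun _ => 0) = true) :
    φ.sat (genL (lets x y p r q s z 1 1 1) (List.range 9)) (lets x y p r q s z 1 1 1) fun _ => 1 :=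
  let ⟨_, R, c⟩ := TK.exists_reg (lets_ge'' x y p r q s z) L.rels L.z1; R.sound c φ h

theorem eqs : (p * p = 1 ∧ r * r = 1 ∧ q * q = 1 ∧ s * s = 1 ∧ z * z = 1 ∧ x * x * x = 1 ∧ y * y * y = 1) ∧
    (p * r = r * z * p ∧ q * s = s * z * q ∧ p * q = q * p ∧ p * s = s * p ∧ r * q = q * r ∧ r * s = s * r ∧ s ≠ 1) ∧
    (x * p = r * x ∧ x * r = p * r * s * q * x ∧ x * q = r * s * x ∧ x * s = r * q * z * x ∧ x * z = z * x) ∧
    (y * p = r * s * z * y ∧ y * r = p * s * y ∧ y * q = s * z * y ∧ y * s = p * r * s * q * y ∧ y * z = z * y) ∧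
    p * q * p * q = 1 ∧ r * q * r * q = 1 ∧ r * (s * z) * r * s * z = 1 ∧ p * (s * z) * p * s * z = 1 ∧ p * r ≠ r * p :=
  L.dec (((F.p * F.p ≐ 1) ⋏ (F.r * F.r ≐ 1) ⋏ (F.q * F.q ≐ 1) ⋏ (F.s * F.s ≐ 1) ⋏ (F.z * F.z ≐ 1) ⋏ (F.x * F.x * F.x ≐ 1) ⋏
      (F.y * F.y * F.y ≐ 1)) ⋏
    ((F.p * F.r ≐ F.r * F.z * F.p) ⋏ (F.q * F.s ≐ F.s * F.z * F.q) ⋏ cm F.p F.q ⋏ cm F.p F.s ⋏ cm F.r F.q ⋏ cm F.r F.s ⋏
      ne F.s 1) ⋏
    ((F.x * F.p ≐ F.r * F.x) ⋏ (F.x * F.r ≐ F.p * F.r * F.s * F.q * F.x) ⋏ (F.x * F.q ≐ F.r * F.s * F.x) ⋏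
      (F.x * F.s ≐ F.r * F.q * F.z * F.x) ⋏ cm F.x F.z) ⋏
    ((F.y * F.p ≐ F.r * F.s * F.z * F.y) ⋏ (F.y * F.r ≐ F.p * F.s * F.y) ⋏ (F.y * F.q ≐ F.s * F.z * F.y) ⋏
      (F.y * F.s ≐ F.p * F.r * F.s * F.q * F.y) ⋏ cm F.y F.z) ⋏
    (F.p * F.q * F.p * F.q ≐ 1) ⋏ (F.r * F.q * F.r * F.q ≐ 1) ⋏ (F.r * (F.s * F.z) * F.r * F.s * F.z ≐ 1) ⋏
    (F.p * (F.s * F.z) * F.p * F.s * F.z ≐ 1) ⋏ ne (F.p * F.r) (F.r * F.p)) (by decide +kernel)

theorem act_ax : y * s * q * (y * s * q) * (y * s * q) = 1 ∧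
    y * s * q * z = z * (y * s * q) ∧
    y * s * q * p = r * (s * z) * (y * s * q) ∧
    y * s * q * (r * (s * z)) = p * (r * (s * z)) * s * (p * q) * (y * s * q) ∧
    y * s * q * (p * q) = r * (s * z) * s * (y * s * q) ∧
    y * s * q * s = r * (s * z) * (p * q) * z * (y * s * q) :=
  L.dec ((F.y * F.s * F.q * (F.y * F.s * F.q) * (F.y * F.s * F.q) ≐ 1) ⋏
    (F.y * F.s * F.q * F.z ≐ F.z * (F.y * F.s * F.q)) ⋏
    (F.y * F.s * F.q * F.p ≐ F.r * (F.s * F.z) * (F.y * F.s * F.q)) ⋏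
    (F.y * F.s * F.q * (F.r * (F.s * F.z)) ≐ F.p * (F.r * (F.s * F.z)) * F.s * (F.p * F.q) * (F.y * F.s * F.q)) ⋏
    (F.y * F.s * F.q * (F.p * F.q) ≐ F.r * (F.s * F.z) * F.s * (F.y * F.s * F.q)) ⋏
    (F.y * F.s * F.q * F.s ≐ F.r * (F.s * F.z) * (F.p * F.q) * F.z * (F.y * F.s * F.q))) (by decide +kernel)

theorem act_ay : q * x * q * (q * x * q) * (q * x * q) = 1 ∧
    q * x * q * z = z * (q * x * q) ∧
    q * x * q * p = r * (s * z) * s * z * (q * x * q) ∧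
    q * x * q * (r * (s * z)) = p * s * (q * x * q) ∧
    q * x * q * (p * q) = s * z * (q * x * q) ∧
    q * x * q * s = p * (r * (s * z)) * s * (p * q) * (q * x * q) :=
  L.dec ((F.q * F.x * F.q * (F.q * F.x * F.q) * (F.q * F.x * F.q) ≐ 1) ⋏
    (F.q * F.x * F.q * F.z ≐ F.z * (F.q * F.x * F.q)) ⋏
    (F.q * F.x * F.q * F.p ≐ F.r * (F.s * F.z) * F.s * F.z * (F.q * F.x * F.q)) ⋏
    (F.q * F.x * F.q * (F.r * (F.s * F.z)) ≐ F.p * F.s * (F.q * F.x * F.q)) ⋏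
    (F.q * F.x * F.q * (F.p * F.q) ≐ F.s * F.z * (F.q * F.x * F.q)) ⋏
    (F.q * F.x * F.q * F.s ≐ F.p * (F.r * (F.s * F.z)) * F.s * (F.p * F.q) * (F.q * F.x * F.q))) (by decide +kernel)

theorem act_bx : p * y⁻¹ * p * (p * y⁻¹ * p) * (p * y⁻¹ * p) = 1 ∧
    p * y⁻¹ * p * z = z * (p * y⁻¹ * p) ∧
    p * y⁻¹ * p * (p * (s * z)) = r * (p * y⁻¹ * p) ∧
    p * y⁻¹ * p * r = p * (s * z) * r * s * (r * q) * (p * y⁻¹ * p) ∧
    p * y⁻¹ * p * (r * q) = r * s * (p * y⁻¹ * p) ∧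
    p * y⁻¹ * p * s = r * (r * q) * z * (p * y⁻¹ * p) :=
  L.dec ((F.p * F.Y * F.p * (F.p * F.Y * F.p) * (F.p * F.Y * F.p) ≐ 1) ⋏
    (F.p * F.Y * F.p * F.z ≐ F.z * (F.p * F.Y * F.p)) ⋏
    (F.p * F.Y * F.p * (F.p * (F.s * F.z)) ≐ F.r * (F.p * F.Y * F.p)) ⋏
    (F.p * F.Y * F.p * F.r ≐ F.p * (F.s * F.z) * F.r * F.s * (F.r * F.q) * (F.p * F.Y * F.p)) ⋏
    (F.p * F.Y * F.p * (F.r * F.q) ≐ F.r * F.s * (F.p * F.Y * F.p)) ⋏
    (F.p * F.Y * F.p * F.s ≐ F.r * (F.r * F.q) * F.z * (F.p * F.Y * F.p))) (by decide +kernel)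

theorem act_by : r * x⁻¹ * r * (r * x⁻¹ * r) * (r * x⁻¹ * r) = 1 ∧
    r * x⁻¹ * r * z = z * (r * x⁻¹ * r) ∧
    r * x⁻¹ * r * (p * (s * z)) = r * s * z * (r * x⁻¹ * r) ∧
    r * x⁻¹ * r * r = p * (s * z) * s * (r * x⁻¹ * r) ∧
    r * x⁻¹ * r * (r * q) = s * z * (r * x⁻¹ * r) ∧
    r * x⁻¹ * r * s = p * (s * z) * r * s * (r * q) * (r * x⁻¹ * r) :=
  L.dec ((F.r * F.X * F.r * (F.r * F.X * F.r) * (F.r * F.X * F.r) ≐ 1) ⋏
    (F.r * F.X * F.r * F.z ≐ F.z * (F.r * F.X * F.r)) ⋏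
    (F.r * F.X * F.r * (F.p * (F.s * F.z)) ≐ F.r * F.s * F.z * (F.r * F.X * F.r)) ⋏
    (F.r * F.X * F.r * F.r ≐ F.p * (F.s * F.z) * F.s * (F.r * F.X * F.r)) ⋏
    (F.r * F.X * F.r * (F.r * F.q) ≐ F.s * F.z * (F.r * F.X * F.r)) ⋏
    (F.r * F.X * F.r * F.s ≐ F.p * (F.s * F.z) * F.r * F.s * (F.r * F.q) * (F.r * F.X * F.r))) (by decide +kernel)

theorem two : ∀ u ∈ genL (lets x y p r q s z 1 1 1) (List.range 9),
    (u * u * (u * u) * (u * u * (u * u)) * (u * u * (u * u)) = 1 ∧ u * z = z * u) ∧ (u * u * (u * u) = 1 →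
      (u * u = 1 ∨ u * u = z) ∧ (u * p = p * u → u * r = r * u → u * q = q * u → u * s = s * u → u = 1 ∨ u = z) ∧
      (V4 z s u ∨ V4 z s (p * u) ∨ V4 z s (r * u) ∨ V4 z s (p * r * u) ∨ V4 z s (q * u) ∨ V4 z s (q * p * u) ∨
        V4 z s (q * r * u) ∨ V4 z s (q * p * r * u)) ∧
      (u * u = 1 → u = 1 ∨ u = z ∨ ∃ k ∈ genL (lets x y p r q s z 1 1 1) (List.range 9), k * s = u * k) ∧
      ∀ w ∈ genL (lets x y p r q s z 1 1 1) (List.range 9), w * w * (w * w) = 1 →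
        u * w * (u * w) * (u * w * (u * w)) = 1 ∧ (u * w = w * u ∨ u * w = w * z * u)) :=
  L.dec (.all (((u0 * u0 * (u0 * u0) * (u0 * u0 * (u0 * u0)) * (u0 * u0 * (u0 * u0)) ≐ 1) ⋏ cm u0 F.z) ⋏ (inQ u0 ⟹
    ((u0 * u0 ≐ 1) ⋎ (u0 * u0 ≐ F.z)) ⋏ (cm u0 F.p ⟹ cm u0 F.r ⟹ cm u0 F.q ⟹ cm u0 F.s ⟹ (u0 ≐ 1) ⋎ (u0 ≐ F.z)) ⋏
    (v4 u0 ⋎ v4 (F.p * u0) ⋎ v4 (F.r * u0) ⋎ v4 (F.p * F.r * u0) ⋎ v4 (F.q * u0) ⋎ v4 (F.q * F.p * u0) ⋎
      v4 (F.q * F.r * u0) ⋎ v4 (F.q * F.p * F.r * u0)) ⋏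
    ((u0 * u0 ≐ 1) ⟹ (u0 ≐ 1) ⋎ (u0 ≐ F.z) ⋎ .ex (u0 * F.s ≐ u1 * u0)) ⋏
    .all (inQ u0 ⟹ inQ (u1 * u0) ⋏ (cm u1 u0 ⋎ (u1 * u0 ≐ u0 * F.z * u1)))))) (by decide +kernel)

theorem inn : ∀ q' ∈ genL (lets x y p r q s z 1 1 1) (List.range 9), V4 z s (q' * q) → q' * q' = 1 →
    ∀ p' ∈ genL (lets x y p r q s z 1 1 1) (List.range 9), V4 z s (p' * p) → p' * q' = q' * p' →
    ∀ r' ∈ genL (lets x y p r q s z 1 1 1) (List.range 9), V4 z s (r' * r) → r' * q' = q' * r' →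
    ∃ u ∈ genL (lets x y p r q s z 1 1 1) (List.range 9), u * u * (u * u) = 1 ∧ u * q = q' * u ∧ u * p = p' * u ∧
      u * r = r' * u ∧ u * s = s * u :=
  L.dec (.all (v4 (u0 * F.q) ⟹ (u0 * u0 ≐ 1) ⟹ .all (v4 (u0 * F.p) ⟹ cm u0 u1 ⟹ .all (v4 (u0 * F.r) ⟹ cm u0 u2 ⟹
    .ex (inQ u0 ⋏ (u0 * F.q ≐ u3 * u0) ⋏ (u0 * F.p ≐ u2 * u0) ⋏ (u0 * F.r ≐ u1 * u0) ⋏ cm u0 F.s))))) (by decide +kernel)

omit L in
theorem mem (i : ℕ) (hi : i < 9 := by decide) :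
    lets x y p r q s z 1 1 1 i ∈ genL (lets x y p r q s z 1 1 1) (List.range 9) := mem_genL _ (List.mem_range.2 hi)

variable {Q : Subgroup G} (hQ : ∀ u, u ∈ Q ↔ u ∈ genL (lets x y p r q s z 1 1 1) (List.range 9) ∧ u * u * (u * u) = 1)
include hQ

theorem memQ : p ∈ Q ∧ r ∈ Q ∧ q ∈ Q ∧ s ∈ Q ∧ z ∈ Q := by
  obtain ⟨⟨pp, rr, qq, ss, zz, -⟩, -⟩ := L.eqs
  exact ⟨(hQ p).2 ⟨mem 4, by rw [pp, one_mul]⟩, (hQ r).2 ⟨mem 5, by rw [rr, one_mul]⟩, (hQ q).2 ⟨mem 6, by rw [qq, one_mul]⟩,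
    (hQ s).2 ⟨mem 7, by rw [ss, one_mul]⟩, (hQ z).2 ⟨mem 8, by rw [zz, one_mul]⟩⟩

theorem es : ES Q z := by
  obtain ⟨hp, hr, hq, hs, hz⟩ := L.memQ hQ
  refine ⟨Invol.orderOf_two_iff.2 ⟨L.eqs.1.2.2.2.2.1, L.z1⟩, hz, fun u hu => (L.two u ((hQ u).1 hu).1).1.2,
    fun u hu h => ((L.two u ((hQ u).1 hu).1).2 ((hQ u).1 hu).2).2.1 (h p hp) (h r hr) (h q hq) (h s hs),
    fun u hu w hw => ?_, fun u hu => ((L.two u ((hQ u).1 hu).1).2 ((hQ u).1 hu).2).1,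
    p, hp, r, hr, L.eqs.2.2.2.2.2.2.2.2⟩
  exact (((L.two u ((hQ u).1 hu).1).2 ((hQ u).1 hu).2).2.2.2.2 w ((hQ w).1 hw).1 ((hQ w).1 hw).2).2.imp cj_eq.2 cj_eq.2

theorem cenQ {h : G} (hz : Commute h z) (hp : Commute h p) (hr : Commute h r) (hq : Commute h q) (hs : Commute h s) :
    ∀ u ∈ Q, Commute h u := fun u hu => by
  have k : ∀ w, Commute h w → V4 z s (w * u) → Commute h u := fun w hw e => by
    have : Commute h (w * u) := by
      rcases e with e | e | e | e <;> rw [e]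
      exacts [.one_right _, hz, hs, hs.mul_right hz]
    simpa only [inv_mul_cancel_left] using hw.inv_right.mul_right this
  rcases ((L.two u ((hQ u).1 hu).1).2 ((hQ u).1 hu).2).2.2.1 with e | e | e | e | e | e | e | e
  exacts [k 1 (.one_right _) (by rwa [one_mul]), k _ hp e, k _ hr e, k _ (hp.mul_right hr) e, k _ hq e,
    k _ (hq.mul_right hp) e, k _ (hq.mul_right hr) e, k _ ((hq.mul_right hp).mul_right hr) e]

variable [Finite G] (E : LE Q z)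
include E

theorem qg {g : G} (gz : κ g z = s) (gs : κ g s = z) (cap : ∀ w ∈ Q, κ g⁻¹ w ∈ Q → V4 z s w) : QG Q p r q s z g := by
  obtain ⟨hp, hr, hq, hs, hz⟩ := L.memQ hQ
  obtain ⟨⟨pp, rr, qq, ss, zz, -⟩, ⟨pr, qs, pq, ps, rq, rs, s1⟩, -⟩ := L.eqs
  refine ⟨⟨E, hq, hs, qq, ss, s1, cj_eq.2 qs, gz, gs, cap⟩, hp, hr, pp, rr, cj_eq.2 pr, pq, ps, rq, rs,
    fun h hz hs e1 e2 e3 => ?_⟩
  have m : ∀ u ∈ Q, κ h u ∈ genL (lets x y p r q s z 1 1 1) (List.range 9) := fun u hu => ((hQ _).1 (E.conj_mem hz hu)).1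
  obtain ⟨u, u1, u2, u3, u4, u5, u6⟩ := L.inn _ (m q hq) (by rwa [inv_of_sq qq] at e1) (by rw [← map_mul, qq, map_one]) _ (m p hp)
    (by rwa [inv_of_sq pp] at e2) (cj_comm.2 pq) _ (m r hr) (by rwa [inv_of_sq rr] at e3) (cj_comm.2 rq)
  have uQ := (hQ u).2 ⟨u1, u2⟩
  have k : ∀ w, u * w = κ h w * u → Commute (u⁻¹ * h) w := fun w e => cj_eq.1 (by rw [cj_mul]; exact cj_inv (cj_eq.2 e))
  rcases E.cQ _ (L.cenQ hQ ((E.zc u uQ).inv_left.mul_left hz) (k _ u4) (k _ u5) (k _ u3)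
    ((Commute.inv_left u6).mul_left hs)) with e | e
  · exact inv_mul_eq_one.1 e ▸ uQ
  · exact eq_mul_of_inv_mul_eq e ▸ mul_mem uQ E.zQ

theorem act_eq {a c w : G} (az : Commute a z) (cz : Commute c z) (c3 : c * c * c = 1) (w3 : w * w * w = 1) (wz : w * z = z * w)
    (hp : w * κ a p = κ a (κ c p) * w) (hr : w * κ a r = κ a (κ c r) * w) (hq : w * κ a q = κ a (κ c q) * w)
    (hs : w * κ a s = κ a (κ c s) * w) : κ a c = w := by
  have k : ∀ u, w * κ a u = κ a (κ c u) * w → Commute ((κ a⁻¹ w)⁻¹ * c) u := fun u e => cj_eq.1 (by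
    rw [cj_mul]; refine cj_inv ?_
    rw [← cj_inj (g := a), cj_cj, ← cj_mul a a⁻¹, mul_inv_cancel, map_one, MulAut.one_apply]; exact cj_eq.2 e)
  have wz' : Commute (κ a⁻¹ w) z := by
    rw [← cj_eq.2 az.inv_left.eq]; exact cj_comm.2 wz
  have := cube_eq E.zz wz' c3 (by rw [← map_mul, ← map_mul, w3, map_one])
    (E.cQ _ (L.cenQ hQ (wz'.inv_left.mul_left cz) (k _ hp) (k _ hr) (k _ hq) (k _ hs))) L.z1
  rw [this, ← cj_mul, mul_inv_cancel, map_one, MulAut.one_apply]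

theorem exists_amal (hc : Nat.card (centralizer ({z} : Set G)) = 1152) {g : G} (gz : κ g z = s) (gs : κ g s = z)
    (cap : ∀ w ∈ Q, κ g⁻¹ w ∈ Q → V4 z s w) : ∃ a b v, Amal x y p r q s z a b v := by
  obtain ⟨v, a, b, vv, vz, vs, va, vb, br, ⟨az, as, aa, ap, aq⟩, ⟨bz, bs, bb, br', bq⟩, ar, bp, ab⟩ :=
    (L.qg hQ E gz gs cap).exists_v
  obtain ⟨⟨pp, rr, qq, ss, zz, xxx, yyy⟩, -, ⟨x1, x2, x3, x4, xz⟩, ⟨y1, y2, y3, y4, yz⟩, e1, e2, e3, e4, -⟩ := L.eqs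
  have ap' := cj_eq.2 ap.eq
  have as' := cj_eq.2 as.eq
  have az' := cj_eq.2 az.eq
  have br'' := cj_eq.2 br'.eq
  have bs' := cj_eq.2 bs.eq
  have bz' := cj_eq.2 bz.eq
  rw [← cj_eq] at x1 x2 x3 x4 y1 y2 y3 y4
  have ax : κ a x = y * s * q := by
    obtain ⟨f1, f2, f3, f4, f5, f6⟩ := L.act_ax
    refine L.act_eq hQ E az xz xxx f1 f2 ?_ ?_ ?_ ?_ <;> simp only [x1, x2, x3, x4, map_mul, ap', ar, aq, as', az']
    exacts [f3, f4, f5, f6]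
  have ay : κ a y = q * x * q := by
    obtain ⟨f1, f2, f3, f4, f5, f6⟩ := L.act_ay
    refine L.act_eq hQ E az yz yyy f1 f2 ?_ ?_ ?_ ?_ <;> simp only [y1, y2, y3, y4, map_mul, ap', ar, aq, as', az']
    exacts [f3, f4, f5, f6]
  have bx : κ b x = p * y⁻¹ * p := by
    obtain ⟨f1, f2, f3, f4, f5, f6⟩ := L.act_bx
    refine L.act_eq hQ E bz xz xxx f1 f2 ?_ ?_ ?_ ?_ <;> simp only [x1, x2, x3, x4, map_mul, bp, br'', bq, bs', bz']
    exacts [f3, f4, f5, f6]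
  have by' : κ b y = r * x⁻¹ * r := by
    obtain ⟨f1, f2, f3, f4, f5, f6⟩ := L.act_by
    refine L.act_eq hQ E bz yz yyy f1 f2 ?_ ?_ ?_ ?_ <;> simp only [y1, y2, y3, y4, map_mul, bp, br'', bq, bs', bz']
    exacts [f3, f4, f5, f6]
  have A : ∀ u, 1 * a * u * a = κ a u := fun u => by rw [MulAut.conj_apply, inv_of_sq aa, one_mul]
  have B : ∀ u, 1 * b * u * b = κ b u := fun u => by rw [MulAut.conj_apply, inv_of_sq bb, one_mul]
  have C : ∀ {u w : G}, Commute u w → u * u = 1 → w * w = 1 → 1 * u * w * u * w = 1 := fun h h1 h2 => by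
    rw [one_mul, mul_assoc, ← pow_two, h.mul_pow, pow_two, pow_two, h1, h2, one_mul]
  have R : ∀ w ∈ JU4H.rels, ev (lets x y p r q s z a b 1) w = 1 := by
    refine rels_of_sub (rels' := JU4L.rels ++ [[9, 9], [10, 10], [9, 4, 9, 4], [10, 5, 10, 5], [6, 4, 9, 6, 9],
      [6, 5, 10, 6, 10], [8, 7, 5, 9, 5, 9], [8, 7, 4, 10, 4, 10], [7, 10, 9, 10, 9], [8, 9, 8, 9], [7, 9, 7, 9],
      [8, 10, 8, 10], [7, 10, 7, 10], [3, 7, 6, 9, 0, 9], [6, 1, 6, 9, 2, 9], [4, 2, 4, 10, 0, 10], [5, 0, 5, 10, 2, 10]])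
      (List.forall_mem_append.2 ⟨rels_congr (n := 9) L.rels (fun n hn => by interval_cases n <;> rfl) (by decide), ?_⟩)
      (by decide)
    simp only [List.forall_mem_cons]
    refine ⟨(congrArg (· * a) (one_mul a)).trans aa, (congrArg (· * b) (one_mul b)).trans bb, C ap.symm pp aa,
      C br'.symm rr bb, ?_, ?_, ?_, ?_, ?_, C az aa zz, C as aa ss, C bz bb zz, C bs bb ss, ?_, ?_, ?_, ?_, by simp⟩
    · change 1 * a * q * a * p * q = 1; rw [A, aq, e1]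
    · change 1 * b * q * b * r * q = 1; rw [B, bq, e2]
    · change 1 * a * r * a * r * s * z = 1; rw [A, ar, e3]
    · change 1 * b * p * b * p * s * z = 1; rw [B, bp, e4]
    · change 1 * a * b * a * b * s = 1; rw [A, ab, mul_assoc b, ← bs.eq, Invol.mul_self_cancel bb, ss]
    · change 1 * a * x * a * q * s * y⁻¹ = 1; rw [A, ax, Invol.mul_self_cancel' qq, Invol.mul_self_cancel' ss, mul_inv_cancel]
    · change 1 * a * y * a * q * x⁻¹ * q = 1; rw [A, ay, Invol.mul_self_cancel' qq, mul_inv_cancel_right, qq]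
    · change 1 * b * x * b * p * y * p = 1; rw [B, bx, Invol.mul_self_cancel' pp, inv_mul_cancel_right, pp]
    · change 1 * b * y * b * r * x * r = 1; rw [B, by', Invol.mul_self_cancel' rr, inv_mul_cancel_right, rr]
  refine ⟨a, b, v, R, L.z1, eq_of_le_of_card_ge (genL_le fun i hi => memC.2 ?_) ?_, vv, vz, vs, va, vb, br⟩
  · rcases lt_or_ge i 9 with h | h
    · have := (L.two _ (mem i h)).1.2
      interval_cases i <;> exact this
    · have := List.mem_range.1 hi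
      interval_cases i
      exacts [az.eq, bz.eq]
  · obtain ⟨f, R', -⟩ := TH.exists_reg (lets_ge' x y p r q s z a b) R L.z1
    rw [hc, R'.card]

end KL

end Cfsg.Agent.U4R
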