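import Cfsg.Agent.HJ.Rho

/-! Regular tables without a cardinality hypothesis (helper24): `exists_reg'` (the table is faithful as soon as one
letter is nontrivial), `Reg.card`, `ev_one_of_fin` (identities from an enumeration over the trivial subgroup). -/

set_option autoImplicit false

namespace Cfsg.Agent.HJ

open Cfsg.Agent.Comp Cfsg.Agent.Known Cfsg.Agent.Spor

variable {G : Type*} [Group G]

theorem runW_inj {T : ℕ → ℕ → ℕ} {N : ℕ} (h : ∀ x, ∀ c < N, T x c < N)
    (h' : ∀ x, ∀ c < N, ∀ d < N, T x c = T x d → c = d) (fuel : ℕ) :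
    ∀ w, ∀ c < N, ∀ d < N, runW T fuel w c = runW T fuel w d → c = d := by
  induction fuel with
  | zero => exact fun w c _ d _ e => e
  | succ n ih =>
    intro w c hc d hd
    rcases e : Nat.land w 15 with _ | x
    · simp only [runW, e]; exact id
    · have : ∀ d, runW T (n + 1) w d = runW T n (Nat.shiftRight w 4) (T x d) := fun d => by
        simp only [runW, e, force_eq]
      rw [this, this]
      exact fun k => h' x c hc d hd (ih _ _ (h x c hc) _ (h x d hd) k)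

/-- The commutator of codes. -/
def cmC (mu : ℕ → ℕ → ℕ) (iv : ℕ → ℕ) (k a : ℕ) : ℕ :=
  force (mu k a) fun u => force (iv k) fun k' => force (iv a) fun a' => force (mu k' a') fun u' => mu u u'

/-- Every nontrivial normal subgroup contains `zc`. -/
def chkKer (N : ℕ) (mu : ℕ → ℕ → ℕ) (iv : ℕ → ℕ) (A : ℕ → ℕ) (n zc : ℕ) : Bool :=
  band (allLt n fun a => Nat.blt (A a) N) <| allLt N fun c => band (band (Nat.blt (iv c) N) (Nat.beq (mu (iv c) c) 0))
    (bor (Nat.beq c 0) (bor (Nat.beq c zc) (anyLt n fun a => force (cmC mu iv c (A a)) fun k =>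
      bor (Nat.beq k zc) (anyLt n fun b => Nat.beq (cmC mu iv k (A b)) zc))))

theorem exists_reg' {g : ℕ → G} {nets : List Net} {N nl K : ℕ} {rels : List (List ℕ)}
    (ok : netsOk N nets = true) (hg : ∀ r ∈ rels, ev g r = 1) (hi : chkInv rels (List.range nl) = true)
    (hf : chkFin nets N 0 (List.range nl) 0 N K = true) (est : ESt g nets N (1 : G) 0 K) {w : ℕ} {tabs : List ℕ}
    (hl : tabs.length = nl) (h0 : 0 < nl) (hT : ∀ x < nl, TabOf N w (nthL (nthL 0 tabs 0) tabs x) (ev (PP nets) [x])⁻¹)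
    {v ws fuel : ℕ} (hw : allLt N (fun c => Nat.beq (muW w tabs v ws fuel c 0) c) = true)
    {iv A : ℕ → ℕ} {n zc zi : ℕ} (hk : chkKer N (muW w tabs v ws fuel) iv A n zc = true) (h1 : zi < nl) (h2 : zc < N)
    (h3 : tbl w tabs zi zc = 0) (hz : g zi ≠ 1) :
    ∃ f, Reg (genL g (List.range nl)) N (muW w tabs v ws fuel) f ∧
      ∀ x < nl, ∀ c < N, tbl w tabs x c = 0 → f c = g x := by
  obtain ⟨⟨-, hN⟩, f, f0, k⟩ := fin_sound ok hf est
  rw [zero_add] at hN k
  have k1 : ∀ x < nl, ∀ c < N, tbl w tabs x c < N ∧ f (tbl w tabs x c) = (g x)⁻¹ * f c := fun x hx c hc => by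
    obtain ⟨a, b⟩ := hT x hx c hc
    have := (k [x] (by simpa using hx) _ ⟨Nat.zero_le _, b⟩).2
    rw [← Equiv.Perm.mul_apply, mul_inv_cancel, Equiv.Perm.one_apply, smul_eq_mul] at this
    rw [tbl, a, ← this]
    exact ⟨b, by simp⟩
  let y : ℕ → G := fun x => if x < nl then (g x)⁻¹ else (g 0)⁻¹
  have hy : ∀ x, y x ∈ genL g (List.range nl) := fun x => by
    simp only [y]; split_ifs with h
    exacts [inv_mem (mem_genL g (List.mem_range.2 h)), inv_mem (mem_genL g (List.mem_range.2 h0))]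
  have t0 : ∀ x, ¬ x < nl → tbl w tabs x = tbl w tabs 0 := fun x h => by
    rw [tbl, tbl, nthL_eq _ _ x, List.getD_eq_default _ _ (by omega), nthL_eq _ _ 0, nthL_eq _ _ 0,
      List.getD_eq_getElem _ _ (by omega), List.getD_eq_getElem _ _ (by omega)]
  have k2 : ∀ x, ∀ c < N, tbl w tabs x c < N ∧ f (tbl w tabs x c) = y x * f c := fun x c hc => by
    simp only [y]; split_ifs with h
    · exact k1 x h c hc
    · rw [t0 x h]; exact k1 0 h0 c hc
  have i1 : ∀ x < nl, ∀ c < N, ∀ d < N, tbl w tabs x c = tbl w tabs x d → c = d := fun x hx c hc d hd e => by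
    rw [tbl, (hT x hx c hc).1, (hT x hx d hd).1] at e
    exact (Equiv.injective _) e
  have i2 : ∀ x, ∀ c < N, ∀ d < N, tbl w tabs x c = tbl w tabs x d → c = d := fun x => by
    by_cases h : x < nl
    · exact i1 x h
    · rw [t0 x h]; exact i1 0 h0
  have k3 : ∀ c < N, f c ∈ genL g (List.range nl) ∧ ∀ d < N, muW w tabs v ws fuel c d < N ∧
      f (muW w tabs v ws fuel c d) = f c * f d := fun c hc => by
    obtain ⟨a, ha, e⟩ := runW_spec hy k2 fuel (get2 v ws c)
    have e1 := nbeq.1 (allLt_iff.1 hw c hc)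
    simp only [muW, force_eq] at e1 ⊢
    have e2 := (e 0 hN).2
    rw [e1, f0, mul_one] at e2
    rw [e2]; exact ⟨ha, e⟩
  have k4 : ∀ h ∈ genL g (List.range nl), ∃ c < N, f c = h := fun h hh => by
    obtain ⟨u, hu, rfl⟩ := exists_word_of_mem_genL hg hi hh
    obtain ⟨a, b⟩ := k u hu 0 ⟨le_rfl, hN⟩
    exact ⟨_, a.2, by rw [← b, f0, smul_eq_mul, mul_one]⟩
  have k5 : ∀ x < nl, ∀ c < N, tbl w tabs x c = 0 → f c = g x := fun x hx c hc' e => by
    have := (k1 x hx c hc').2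
    rw [e, f0] at this
    exact (inv_mul_eq_one.1 this.symm).symm
  refine ⟨f, ⟨hN, f0, fun c hc => (k3 c hc).2, fun c hc => (k3 c hc).1, k4, fun c hc' d hd e => ?_⟩, k5⟩
  set mu := muW w tabs v ws fuel
  rw [chkKer, band_eq, Bool.and_eq_true, allLt_iff, allLt_iff] at hk
  simp only [band_eq, bor_eq, Bool.and_eq_true, Bool.or_eq_true, nblt, nbeq, anyLt_iff, force_eq] at hk
  have j1 : ∀ c < N, iv c < N ∧ f (iv c) = (f c)⁻¹ := fun c hc => ⟨(hk.2 c hc).1.1, by
    have := ((k3 _ (hk.2 c hc).1.1).2 c hc).2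
    rw [(hk.2 c hc).1.2, f0] at this
    exact eq_inv_of_mul_eq_one_left this.symm⟩
  have j2 : ∀ c < N, f c = 1 → ∀ a < N, cmC mu iv c a < N ∧ f (cmC mu iv c a) = 1 := fun c hc e a ha => by
    simp only [cmC, force_eq]
    have u1 := (k3 c hc).2 a ha
    have u2 := (k3 _ (j1 c hc).1).2 _ (j1 a ha).1
    have u3 := (k3 _ u1.1).2 _ u2.1
    exact ⟨u3.1, by rw [u3.2, u1.2, u2.2, (j1 c hc).2, (j1 a ha).2, e]; simp⟩
  have j3 : ∀ c < N, f c = 1 → c = 0 := fun c hc e => by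
    have zz : f zc ≠ 1 := k5 zi h1 zc h2 h3 ▸ hz
    rcases (hk.2 c hc).2 with h | h | ⟨a, ha, h | ⟨b, hb, h⟩⟩
    · exact h
    · exact absurd (h ▸ e) zz
    · exact absurd (h ▸ (j2 c hc e _ (hk.1 a ha)).2) zz
    · have := j2 c hc e _ (hk.1 a ha)
      exact absurd (h ▸ (j2 _ this.1 this.2 _ (hk.1 b hb)).2) zz
  have u := (k3 _ (j1 c hc').1).2 d hd
  have := j3 _ u.1 (by rw [u.2, (j1 c hc').2, e, inv_mul_cancel])
  rw [← (hk.2 c hc').1.2] at this
  simp only [mu, muW, force_eq] at this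
  exact (runW_inj (fun x c hc => (k2 x c hc).1) i2 fuel _ _ hd _ hc' this).symm

theorem Reg.card {H : Subgroup G} {N : ℕ} {mu : ℕ → ℕ → ℕ} {f : ℕ → G} (R : Reg H N mu f) : Nat.card H = N := by
  let F : Fin N → H := fun i => ⟨f i, R.mem i i.2⟩
  have : Function.Bijective F := ⟨fun a b e => Fin.ext (R.inj _ a.2 _ b.2 (congrArg Subtype.val e)),
    fun h => let ⟨c, a, b⟩ := R.surj h h.2; ⟨⟨c, a⟩, Subtype.ext b⟩⟩
  rw [← Nat.card_eq_of_bijective F this, Nat.card_fin]

theorem ev_one_of_fin {g : ℕ → G} {nets : List Net} {N nl K : ℕ} (ok : netsOk N nets = true)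
    (hf : chkFin nets N 0 (List.range nl) 0 N K = true) (est : ESt g nets N (1 : G) 0 K) {ws : List (List ℕ)}
    (h : andB (chkLet (List.range nl) ws) (Spor.allL ws fun w => chkPt nets w 0 0) = true) :
    ∀ w ∈ ws, ev g w = 1 := fun w hw => by
  obtain ⟨⟨-, hN⟩, f, f0, k⟩ := fin_sound ok hf est
  obtain ⟨h1, h2⟩ := (andB_eq_true _ _).1 h
  rw [zero_add] at hN k
  simp only [chkLet, List.all_eq_true, List.contains_iff_mem] at h1
  have := (k w (h1 w hw) 0 ⟨le_rfl, hN⟩).2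
  rwa [ev_apply_of_chkPt ok (allL_spec h2 w hw), f0, smul_eq_mul, mul_one] at this

end Cfsg.Agent.HJ
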